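import Cfsg.Agent.Lib.Helper28.O7Hom
import Cfsg.Agent.Lib.Helper28.CoverM
import Cfsg.Agent.Lib.Helper28.O73Mult.Mat

/-!
# Four generators of `PΩ₇(3)` satisfying the relators `relL0` (helper28)

`xP 0, …, xP 3` are the elements `u, v, t, s` of the presented group `O7.P8 ≅ PΩ₇(3)`, words in
its eight generators; `gP i` is the image of `xP i` in `PΩ₇(3)`.  The matrices of the `xP i` are
the coded matrices of `Mat`, so the relators `relL0` hold for the `gP i`, and each generator of
`P8` has the same image as the word `rootW k` in `u, v, t, s`.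
-/

set_option autoImplicit false

namespace Cfsg.Agent.Lib.Helper28.O73Mult

open Matrix
open Cfsg.Agent.Lib.Helper56.TC (ew ew_nil ew_cons ew_append ew_congr)
open Cfsg.Agent.Lib.Helper28.CovL
open Cfsg.Agent.Lib.Helper28.O7 (mN A P8 Qo ι rI coeM coeM_injective β β_u coeM_Mu γ β' β'_coe)
open Cfsg.Agent.Lib.Helper28.O73Mult.Words

/-- the generators of `P8` -/
noncomputable abbrev u8 : ℕ → P8 := Cfsg.Agent.Lib.Helper28.O7.u

/-- the matrix of the image of an element of `P8` in the isometry group -/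
noncomputable def valP : P8 →* Matrix ι ι (ZMod 3) := coeM.comp β

theorem valP_u8 (i : ℕ) : valP (u8 i) = rI (A i) := by
  show coeM (β (u8 i)) = rI (A i)
  rw [β_u, coeM_Mu]

theorem ew_monoidHom {M N : Type*} [Monoid M] [Monoid N] (f : M →* N) (g : ℕ → M)
    (w : List ℕ) : f (ew g w) = ew (fun i => f (g i)) w := by
  induction w with
  | nil => simp [ew]
  | cons a w ih => rw [ew_cons, ew_cons, map_mul, ih]

theorem valP_ew (w : List ℕ) : valP (ew u8 w) = rI (ew A w) := by
  rw [ew_monoidHom valP u8 w, ew_monoidHom rI A w]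
  apply ew_congr
  intro a _
  exact valP_u8 a

/-- the generators `u, v, t, s` as elements of `P8` (index taken mod 4) -/
noncomputable def xP (i : ℕ) : P8 :=
  if i % 4 = 0 then ew u8 gU else if i % 4 = 1 then ew u8 gV
  else if i % 4 = 2 then ew u8 gT else ew u8 gS

theorem xP_mod (i : ℕ) : xP (i % 4) = xP i := by
  unfold xP
  rw [Nat.mod_mod]

theorem xP_0 : xP 0 = ew u8 gU := by
  unfold xP
  rw [if_pos (by norm_num)]

theorem xP_1 : xP 1 = ew u8 gV := by
  unfold xP
  rw [if_neg (by norm_num), if_pos (by norm_num)]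

theorem xP_2 : xP 2 = ew u8 gT := by
  unfold xP
  rw [if_neg (by norm_num), if_neg (by norm_num), if_pos (by norm_num)]

theorem xP_3 : xP 3 = ew u8 gS := by
  unfold xP
  rw [if_neg (by norm_num), if_neg (by norm_num), if_neg (by norm_num)]

theorem valP_xP (i : ℕ) (hi : i < 4) : valP (xP i) = rI (BL (2 * i)) := by
  interval_cases i
  · rw [xP_0, valP_ew, ew_gU]
    rfl
  · rw [xP_1, valP_ew, ew_gV]
    rfl
  · rw [xP_2, valP_ew, ew_gT]
    rfl
  · rw [xP_3, valP_ew, ew_gS]
    rfl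

theorem BL_inv (i : ℕ) (hi : i < 4) : BL (2 * i) * BL (2 * i + 1) = 1 := by
  interval_cases i
  · exact BL_inv_0
  · exact BL_inv_1
  · exact BL_inv_2
  · exact BL_inv_3

theorem valP_xP_inv (i : ℕ) (hi : i < 4) : valP (xP i)⁻¹ = rI (BL (2 * i + 1)) := by
  have h1 : valP (xP i) * rI (BL (2 * i + 1)) = 1 := by
    rw [valP_xP i hi, ← map_mul, BL_inv i hi, map_one]
  have h2 : valP (xP i)⁻¹ * valP (xP i) = 1 := by
    rw [← map_mul, inv_mul_cancel, map_one]
  calc valP (xP i)⁻¹ = valP (xP i)⁻¹ * (valP (xP i) * rI (BL (2 * i + 1))) := by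
        rw [h1, mul_one]
    _ = rI (BL (2 * i + 1)) := by rw [← mul_assoc, h2, one_mul]

theorem valP_gl (a : ℕ) (ha : a < 8) : valP (gl xP a) = rI (BL a) := by
  unfold gl
  split_ifs with h
  · have e : 2 * (a / 2) = a := by omega
    rw [valP_xP (a / 2) (by omega), e]
  · have e : 2 * (a / 2) + 1 = a := by omega
    rw [valP_xP_inv (a / 2) (by omega), e]

theorem valP_ewB (l : List ℕ) (hl : ∀ a ∈ l, a < 8) :
    valP (ew (gl xP) l) = rI (ew BL l) := by
  rw [ew_monoidHom valP (gl xP) l, ew_monoidHom rI BL l]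
  apply ew_congr
  intro a ha
  exact valP_gl a (hl a ha)

theorem relL0_lt : ∀ l ∈ relL0, ∀ a ∈ l, a < 8 := by decide +kernel

theorem β_eq_of_valP {x y : P8} (h : valP x = valP y) : β x = β y := coeM_injective h

theorem γ_eq_of_β {x y : P8} (h : β x = β y) : γ x = γ y := by
  have h2 : β' x = β' y := Subtype.ext (by rw [β'_coe, β'_coe, h])
  show (QuotientGroup.mk' _) (β' x) = (QuotientGroup.mk' _) (β' y)
  rw [h2]

/-- the generators `u, v, t, s` of `PΩ₇(3)` -/
noncomputable def gP (i : ℕ) : Cfsg.POmega (ZMod 3) Qo := γ (xP i)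

theorem gP_mod (i : ℕ) : gP (i % 4) = gP i := by
  unfold gP
  rw [xP_mod]

theorem ew_gl_gP (l : List ℕ) : ew (gl gP) l = γ (ew (gl xP) l) :=
  (map_ew_gl γ xP l).symm

theorem gP_rel : ∀ l ∈ relL0, ew (gl gP) l = 1 := by
  intro l hl
  rw [ew_gl_gP, ← map_one γ]
  apply γ_eq_of_β
  apply β_eq_of_valP
  rw [valP_ewB l (relL0_lt l hl), relB l hl, map_one, map_one]

theorem rootW_lt : ∀ k < 8, ∀ a ∈ rootW k, a < 8 := by decide +kernel

theorem valP_root (k : ℕ) (hk : k < 8) : valP (ew (gl xP) (rootW k)) = valP (u8 k) := by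
  rw [valP_ewB _ (rootW_lt k hk), valP_u8]
  interval_cases k
  · rw [rootB_0]
    rfl
  · rw [rootB_1]
    rfl
  · rw [rootB_2]
    rfl
  · rw [rootB_3]
    rfl
  · rw [rootB_4]
    rfl
  · rw [rootB_5]
    rfl
  · rw [rootB_6]
    rfl
  · rw [rootB_7]
    rfl

theorem γ_root (k : ℕ) (hk : k < 8) : γ (u8 k) = ew (gl gP) (rootW k) := by
  rw [ew_gl_gP]
  exact (γ_eq_of_β (β_eq_of_valP (valP_root k hk))).symm

end Cfsg.Agent.Lib.Helper28.O73Mult
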