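import Cfsg.Agent.S1686
import Cfsg.Agent.Lib.Helper28.CoverM
import Cfsg.Agent.Lib.Helper28.O73Mult.Hom
import Cfsg.Agent.Lib.Helper28.O73Mult.L0.D
import Cfsg.Agent.Lib.Helper28.G23Mult.L0.D
import Cfsg.Agent.Lib.Helper28.G2Mult.L2.D

/-!
# The cover group of `PΩ₇(3)` has order at most `6 · |PΩ₇(3)|` (helper28)

`PS` is the group presented on `u, v, t, s` by the relators `relL0` (the relators of the
presentation of `G₂(3)` on `u, v, t`, and fourteen relators involving the involution `s`); `E0`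
is its cover group (`Cov.coverRels`).  In `E0`, the subgroup generated by `u, v` has order at
most `6048` (certificate `G2Mult.L2`), it has index at most `2106` in the subgroup generated by
`u, v, t` (certificate `G23Mult.L0`), which has index at most `2160` in `E0` (certificate `L0`).
Hence `|E0| ≤ 2160 · 2106 · 6048 = 6 · 4585351680`.  The homomorphism `γ' : PS → PΩ₇(3)` is
surjective.
-/

set_option autoImplicit false
set_option maxRecDepth 1000000

namespace Cfsg.Agent.Lib.Helper28.O73Mult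

open Cfsg.Agent.Lib.Helper56.TC (Tabs ew ew_cons ew_nil ew_append ew_congr)
open Cfsg.Agent.Lib.Helper28.Cov Cfsg.Agent.Lib.Helper28.CovL
open Cfsg.Agent.Lib.Helper28.O7 (Qo)
open Cfsg.Agent.Lib.Helper28.O73Mult.Words
open Cfsg.Agent.Lib.Helper28.G2Mult.Words (relL2 facsL2)
open Cfsg.Agent.Lib.Helper28.G2Mult (L2.T)
open scoped commutatorElement

/-- the generator names -/
def nm4 (i : ℕ) : Fin 4 := ⟨i % 4, Nat.mod_lt _ (by norm_num)⟩

theorem nm4_idx (y : Fin 4) : y.val < 4 ∧ nm4 y.val = y :=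
  ⟨y.2, Fin.ext (Nat.mod_eq_of_lt y.2)⟩

theorem idx_nm4 (x : ℕ) (hx : x < 4) : (nm4 x).val = x := Nat.mod_eq_of_lt hx

/-- the factorisations of level 0 -/
def fac0 (x : ℕ) : List (List ℕ) := facsL0.getD x []

/-- the factorisations of the presentation of `G₂(3)` -/
def fac1 (x : ℕ) : List (List ℕ) := Cfsg.Agent.Lib.Helper28.G23Mult.Words.facsL0.getD x []

/-- the factorisations of the presentation of `U₃(3)` -/
def fac2 (x : ℕ) : List (List ℕ) := facsL2.getD x []

/-- the relators of `PS` -/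
def RS : Set (FreeGroup (Fin 4)) := {x | ∃ l ∈ relL0, x = wd nm4 l}

/-- the group presented on `u, v, t, s` -/
abbrev PS : Type := PresentedGroup RS

/-- the cover group of `PS` -/
abbrev E0 : Type := PresentedGroup (coverRels RS (cw nm4 (fun y : Fin 4 => y.val) fac0))

theorem lok0 : LOk 4 relL0 fac0 := ⟨by decide +kernel, by decide +kernel, by decide +kernel⟩

theorem relL0_mem : ∀ l ∈ relL0, wd nm4 l ∈ RS := fun l hl => ⟨l, hl, rfl⟩

theorem hw0 : ∀ y : Fin 4, cw nm4 (fun y : Fin 4 => y.val) fac0 y ∈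
    commutator (FreeGroup (Fin 4)) :=
  cw_mem_commutator nm4 (fun y : Fin 4 => y.val) 4 relL0 fac0 nm4_idx lok0

theorem hw0' : ∀ y : Fin 4, (FreeGroup.of y)⁻¹ * cw nm4 (fun y : Fin 4 => y.val) fac0 y ∈
    Subgroup.normalClosure RS :=
  cw_mem_normalClosure nm4 (fun y : Fin 4 => y.val) 4 relL0 fac0 RS nm4_idx lok0 relL0_mem

/-- the generators of `E0` -/
noncomputable abbrev g0 : ℕ → E0 := cg nm4 RS (cw nm4 (fun y : Fin 4 => y.val) fac0)

theorem g0_rel : ∀ r ∈ coverList 4 relL0 fac0, ew (gl g0) r = 1 :=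
  cover_rel nm4 (fun y : Fin 4 => y.val) 4 relL0 fac0 RS idx_nm4 relL0_mem

/-! ### The subgroups generated by the first `n` generators -/

/-- the first `n` generators of `E0` -/
def gensN (n : ℕ) : Set E0 := {x | ∃ i < n, x = g0 i}

/-- the subgroup of `E0` generated by the first `n` generators -/
noncomputable def HN (n : ℕ) : Subgroup E0 := Subgroup.closure (gensN n)

theorem g0_mem_HN (n i : ℕ) (hi : i < n) : g0 i ∈ HN n :=
  Subgroup.subset_closure ⟨i, hi, rfl⟩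

/-- the generators of `HN n` -/
noncomputable def hN (n : ℕ) (i : ℕ) : HN n :=
  if hi : i < n then ⟨g0 i, g0_mem_HN n i hi⟩ else 1

theorem coe_hN (n i : ℕ) (hi : i < n) : ((hN n i : HN n) : E0) = g0 i := by
  unfold hN
  rw [dif_pos hi]

theorem coe_ew_hN (n : ℕ) (l : List ℕ) (hl : ∀ a ∈ l, a / 2 < n) :
    ((ew (gl (hN n)) l : HN n) : E0) = ew (gl g0) l := by
  have h := map_ew_gl (HN n).subtype (hN n) l
  have e : ((ew (gl (hN n)) l : HN n) : E0) = (HN n).subtype (ew (gl (hN n)) l) := rfl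
  rw [e, h]
  exact ew_gl_congr _ _ n (fun i hi => coe_hN n i hi) l hl

theorem hN_closure (n : ℕ) : Subgroup.closure {x : HN n | ∃ i < n, x = hN n i} = ⊤ := by
  have e : {x : HN n | ∃ i < n, x = hN n i} =
      ((↑) : Subgroup.closure (gensN n) → E0) ⁻¹' (gensN n) := by
    ext x
    constructor
    · rintro ⟨i, hi, rfl⟩
      exact ⟨i, hi, coe_hN n i hi⟩
    · rintro ⟨i, hi, hx⟩
      exact ⟨i, hi, Subtype.ext (hx.trans (coe_hN n i hi).symm)⟩
  rw [e]
  exact Subgroup.closure_closure_coe_preimage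

theorem ew_mem_HN (n : ℕ) (l : List ℕ) (hl : ∀ a ∈ l, a / 2 < n) : ew (gl g0) l ∈ HN n := by
  rw [← coe_ew_hN n l hl]
  exact SetLike.coe_mem _

theorem sub02 : ∀ w ∈ coverList 2 relL2 fac2, w ∈ coverList 4 relL0 fac0 := by decide +kernel

theorem sub01 : ∀ w ∈ coverList 3 Cfsg.Agent.Lib.Helper28.G23Mult.Words.relL0 fac1,
    w ∈ coverList 4 relL0 fac0 := by decide +kernel

theorem card_H2 (hC2 : CertC L2.T) : Finite (HN 2) ∧ Nat.card (HN 2) ≤ 6048 := by
  have hK : L2.T.K = 2 * 2 := rfl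
  have hrel : ∀ w ∈ L2.T.rels1, ew (gl (hN 2)) w = 1 := by
    intro w hw
    apply Subtype.ext
    have hlt : ∀ a ∈ w, a / 2 < 2 := by
      intro a ha
      have := hC2.hrelK w hw a ha
      rw [hK] at this
      omega
    rw [coe_ew_hN 2 w hlt]
    exact g0_rel w (sub02 w hw)
  have hsub : ∀ s ∈ L2.T.subs, ew (gl (hN 2)) s ∈ (⊥ : Subgroup (HN 2)) :=
    fun s hs => absurd hs List.not_mem_nil
  obtain ⟨f, c⟩ := hC2.card_le (⊥ : Subgroup (HN 2)) (hN 2) 2 hK (hN_closure 2) hrel hsub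
  refine ⟨f, ?_⟩
  have e : L2.T.N = 6048 := rfl
  rw [e, Subgroup.card_bot, mul_one] at c
  exact c

theorem subs1_lt : ∀ s ∈ Cfsg.Agent.Lib.Helper28.G23Mult.Words.subs0, ∀ a ∈ s, a / 2 < 2 := by
  decide +kernel

theorem card_H3 (hC1 : CertC Cfsg.Agent.Lib.Helper28.G23Mult.L0.T) (hC2 : CertC L2.T) :
    Finite (HN 3) ∧ Nat.card (HN 3) ≤ 2106 * 6048 := by
  obtain ⟨f2, c2⟩ := card_H2 hC2
  have : Finite (HN 2) := f2
  let K : Subgroup (HN 3) := (HN 2).subgroupOf (HN 3)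
  let ι : K → HN 2 := fun x => ⟨x.1.1, Subgroup.mem_subgroupOf.mp x.2⟩
  have hι : Function.Injective ι := by
    intro x y hxy
    apply Subtype.ext
    apply Subtype.ext
    exact congrArg (fun z : HN 2 => (z : E0)) hxy
  have hKfin : Finite K := Finite.of_injective ι hι
  have hKcard : Nat.card K ≤ 6048 := le_trans (Nat.card_le_card_of_injective ι hι) c2
  have hK6 : Cfsg.Agent.Lib.Helper28.G23Mult.L0.T.K = 2 * 3 := rfl
  have hrel : ∀ w ∈ Cfsg.Agent.Lib.Helper28.G23Mult.L0.T.rels1, ew (gl (hN 3)) w = 1 := by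
    intro w hw
    apply Subtype.ext
    have hlt : ∀ a ∈ w, a / 2 < 3 := by
      intro a ha
      have := hC1.hrelK w hw a ha
      rw [hK6] at this
      omega
    rw [coe_ew_hN 3 w hlt]
    exact g0_rel w (sub01 w hw)
  have hsub : ∀ s ∈ Cfsg.Agent.Lib.Helper28.G23Mult.L0.T.subs, ew (gl (hN 3)) s ∈ K := by
    intro s hs
    have hlt2 : ∀ a ∈ s, a / 2 < 2 := subs1_lt s hs
    have hlt : ∀ a ∈ s, a / 2 < 3 := by
      intro a ha
      have := hlt2 a ha
      omega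
    rw [Subgroup.mem_subgroupOf, coe_ew_hN 3 s hlt]
    exact ew_mem_HN 2 s hlt2
  obtain ⟨h1f, h1c⟩ := hC1.card_le K (hN 3) 3 hK6 (hN_closure 3) hrel hsub
  refine ⟨h1f, le_trans h1c ?_⟩
  have e : Cfsg.Agent.Lib.Helper28.G23Mult.L0.T.N = 2106 := rfl
  rw [e]
  exact Nat.mul_le_mul_left _ hKcard

theorem subs0_lt : ∀ s ∈ subs0, ∀ a ∈ s, a / 2 < 3 := by decide +kernel

theorem card_E0 (hC0 : CertC L0.T) (hC1 : CertC Cfsg.Agent.Lib.Helper28.G23Mult.L0.T) (hC2 : CertC L2.T) :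
    Finite E0 ∧ Nat.card E0 ≤ 27512110080 := by
  obtain ⟨f1, c1⟩ := card_H3 hC1 hC2
  have : Finite (HN 3) := f1
  obtain ⟨h1, h2⟩ := level_card_le nm4 (fun y : Fin 4 => y.val) 4 relL0 fac0 RS hC0 rfl rfl
    nm4_idx idx_nm4 relL0_mem (HN 3) (fun s hs => ew_mem_HN 3 s (subs0_lt s hs))
  refine ⟨h1, le_trans h2 ?_⟩
  have e : L0.T.N = 2160 := rfl
  rw [e]
  calc 2160 * Nat.card (HN 3) ≤ 2160 * (2106 * 6048) := Nat.mul_le_mul_left _ c1
    _ = 27512110080 := by norm_num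

/-! ### The homomorphism onto `PΩ₇(3)` -/

/-- the generators of `PS` -/
noncomputable def uS (i : ℕ) : PS := PresentedGroup.of (nm4 i)

theorem uS_rel : ∀ l ∈ relL0, ew (gl uS) l = 1 := by
  intro l hl
  have h := mk_wd RS nm4 l
  rw [PresentedGroup.one_of_mem (relL0_mem l hl)] at h
  exact h.symm

theorem γ'_rel : ∀ r ∈ RS, FreeGroup.lift (fun y : Fin 4 => gP y.val) r = 1 := by
  rintro r ⟨l, hl, rfl⟩
  rw [lift_wd]
  have e : (fun i => (fun y : Fin 4 => gP y.val) (nm4 i)) = gP := by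
    funext i
    exact gP_mod i
  rw [e]
  exact gP_rel l hl

/-- the homomorphism from `PS` to `PΩ₇(3)` -/
noncomputable def γ' : PS →* Cfsg.POmega (ZMod 3) Qo :=
  PresentedGroup.toGroup (rels := RS) (f := fun y : Fin 4 => gP y.val) γ'_rel

theorem γ'_uS (i : ℕ) : γ' (uS i) = gP i := by
  show PresentedGroup.toGroup (rels := RS) (f := fun y : Fin 4 => gP y.val) γ'_rel
    (PresentedGroup.of (nm4 i)) = gP i
  rw [PresentedGroup.toGroup.of]
  exact gP_mod i

theorem γ'_ew (l : List ℕ) : γ' (ew (gl uS) l) = ew (gl gP) l := by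
  rw [map_ew_gl]
  have e : (fun i => γ' (uS i)) = gP := funext γ'_uS
  rw [e]

theorem γ'_surjective : Function.Surjective γ' := by
  rw [← MonoidHom.range_eq_top, eq_top_iff]
  have h1 : (Cfsg.Agent.Lib.Helper28.O7.γ).range = ⊤ :=
    MonoidHom.range_eq_top.mpr Cfsg.Agent.S1686.γ_surjective
  rw [← h1, MonoidHom.range_eq_map, ← Cfsg.Agent.Lib.Helper28.O7.closure_u,
    MonoidHom.map_closure, Subgroup.closure_le]
  rintro _ ⟨_, ⟨i, hi, rfl⟩, rfl⟩
  have hi' : i < 8 := hi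
  have h2 : Cfsg.Agent.Lib.Helper28.O7.γ (Cfsg.Agent.Lib.Helper28.O7.u i) =
      γ' (ew (gl uS) (rootW i)) := by
    rw [γ'_ew]
    exact γ_root i hi'
  rw [h2]
  exact ⟨_, rfl⟩

end Cfsg.Agent.Lib.Helper28.O73Mult
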