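import Cfsg.Agent.Lib.Helper28.O73Mult.Chain
import Cfsg.Agent.Lib.Helper28.O73Mult.LowTabB

/-!
# The permutation model `LowB` of the cover group of `Ω₇(3)` on 1134 points (helper28)

The cover group `E0` acts on 1134 points (tables of `LowTabB`); a word of letters that moves the
point `0` has a non-trivial value in `E0`.
-/

set_option autoImplicit false
set_option maxRecDepth 1000000

namespace Cfsg.Agent.Lib.Helper28.O73Mult.LowB

open Cfsg.Agent.Lib.Helper56.TC (ew ew_cons ew_nil ew_append ew_congr forceN forceN_eq fldA Tabs)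
open Cfsg.Agent.Lib.Helper56.TC.Tabs (allLt allLt_iff)
open Cfsg.Agent.Lib.Helper28.Cov Cfsg.Agent.Lib.Helper28.CovL
open Cfsg.Agent.Lib.Helper28.O73Mult.Words
open scoped commutatorElement

theorem qinv_all : ∀ a < 8, qinvOK a (li a) = true := by
  intro a ha
  interval_cases a
  · exact qinv_0
  · exact qinv_1
  · exact qinv_2
  · exact qinv_3
  · exact qinv_4
  · exact qinv_5
  · exact qinv_6
  · exact qinv_7

theorem qπ_lt (a x : ℕ) (ha : a < 8) (hx : x < 1134) : qπ a x < 1134 := by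
  have h := (allLt_iff _ _).mp (qinv_all a ha) x hx
  rw [Bool.and_eq_true] at h
  exact Nat.blt_eq.mp h.1

theorem qπ_li (a x : ℕ) (ha : a < 8) (hx : x < 1134) : qπ (li a) (qπ a x) = x := by
  have h := (allLt_iff _ _).mp (qinv_all a ha) x hx
  rw [Bool.and_eq_true] at h
  exact Nat.eq_of_beq_eq_true h.2

theorem li_even (i : ℕ) : li (2 * i) = 2 * i + 1 := by
  unfold li
  rw [if_pos (by omega)]

theorem li_odd (i : ℕ) : li (2 * i + 1) = 2 * i := by
  unfold li
  rw [if_neg (by omega)]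
  omega

/-- the permutation of the generator `i` (taken mod 4) -/
noncomputable def ρ (i : ℕ) : Equiv.Perm (Fin 1134) where
  toFun x := ⟨qπ (2 * (i % 4)) x.val, qπ_lt _ _ (by omega) x.isLt⟩
  invFun x := ⟨qπ (2 * (i % 4) + 1) x.val, qπ_lt _ _ (by omega) x.isLt⟩
  left_inv x := by
    apply Fin.ext
    have h := qπ_li (2 * (i % 4)) x.val (by omega) x.isLt
    rw [li_even] at h
    exact h
  right_inv x := by
    apply Fin.ext
    have h := qπ_li (2 * (i % 4) + 1) x.val (by omega) x.isLt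
    rw [li_odd] at h
    exact h

theorem ρ_mod (i : ℕ) : ρ (i % 4) = ρ i := by
  apply Equiv.ext
  intro x
  apply Fin.ext
  show qπ (2 * (i % 4 % 4)) x.val = qπ (2 * (i % 4)) x.val
  rw [Nat.mod_mod]

theorem gl_ρ_val (a : ℕ) (ha : a < 8) (x : Fin 1134) : ((gl ρ a) x).val = qπ a x.val := by
  unfold gl
  split_ifs with h
  · show qπ (2 * (a / 2 % 4)) x.val = qπ a x.val
    have e : 2 * (a / 2 % 4) = a := by omega
    rw [e]
  · show qπ (2 * (a / 2 % 4) + 1) x.val = qπ a x.val
    have e : 2 * (a / 2 % 4) + 1 = a := by omega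
    rw [e]

theorem ew_ρ_val (l : List ℕ) (hl : ∀ a ∈ l, a < 8) (x : Fin 1134) :
    ((ew (gl ρ) l) x).val = qapp l x.val := by
  induction l with
  | nil => rfl
  | cons a t ih =>
    rw [ew_cons, Equiv.Perm.mul_apply, gl_ρ_val a (hl a List.mem_cons_self),
      ih (fun b hb => hl b (List.mem_cons_of_mem _ hb)), qapp_cons]

theorem ew_ρ_one (l : List ℕ) (hl : l ∈ covAll) : ew (gl ρ) l = 1 := by
  apply Equiv.ext
  intro x
  apply Fin.ext
  rw [ew_ρ_val l (covAll_lt l hl)]
  have h := covAll_ok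
  unfold qrelOK at h
  rw [List.all_eq_true] at h
  have h2 := (allLt_iff _ _).mp (h l hl) x.val x.isLt
  exact Nat.eq_of_beq_eq_true h2

theorem ρ_rel : ∀ r ∈ coverRels RS (cw nm4 (fun y : Fin 4 => y.val) fac0),
    FreeGroup.lift (fun y : Fin 4 => ρ y.val) r = 1 := by
  have hρ : (fun i => (fun y : Fin 4 => ρ y.val) (nm4 i)) = ρ := by
    funext i
    exact ρ_mod i
  rintro r (⟨y, s, hs, rfl⟩ | ⟨y, rfl⟩)
  · obtain ⟨l, hl, rfl⟩ := hs
    rw [map_commutatorElement, FreeGroup.lift_apply_of, lift_wd, hρ]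
    have h := ew_ρ_one (commL (2 * y.val) l) (covAll_comm y.val y.isLt l hl)
    rw [ew_commL, gl_even] at h
    exact h
  · have h3 : (FreeGroup.of y)⁻¹ * cw nm4 (fun y : Fin 4 => y.val) fac0 y =
        wd nm4 (fac0 y.val).flatten := by
      unfold cw
      rw [inv_mul_cancel_left]
    rw [h3, lift_wd, hρ]
    exact ew_ρ_one _ (covAll_fac y.val y.isLt)

/-- the permutation representation of the cover group -/
noncomputable def σρ : E0 →* Equiv.Perm (Fin 1134) :=
  PresentedGroup.toGroup (rels := coverRels RS (cw nm4 (fun y : Fin 4 => y.val) fac0))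
    (f := fun y : Fin 4 => ρ y.val) ρ_rel

theorem σρ_g0 (i : ℕ) : σρ (g0 i) = ρ i := by
  show PresentedGroup.toGroup (rels := coverRels RS (cw nm4 (fun y : Fin 4 => y.val) fac0))
    (f := fun y : Fin 4 => ρ y.val) ρ_rel (PresentedGroup.of (nm4 i)) = ρ i
  rw [PresentedGroup.toGroup.of]
  exact ρ_mod i

theorem zRel_lt : ∀ a ∈ zRel, a < 8 := by decide

theorem ne_one_of_move (l : List ℕ) (hl : ∀ a ∈ l, a < 8)
    (hm : Nat.beq (qapp l 0) 0 = false) : ew (gl g0) l ≠ 1 := by
  intro h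
  have h2 := congrArg σρ h
  rw [map_one, map_ew_gl] at h2
  have e : (fun i => σρ (g0 i)) = ρ := funext σρ_g0
  rw [e] at h2
  have h3 : ((ew (gl ρ) l) (⟨0, by norm_num⟩ : Fin 1134)).val = 0 := by
    rw [h2]
    rfl
  rw [ew_ρ_val l hl] at h3
  have h5 : qapp l 0 = 0 := h3
  rw [h5] at hm
  exact absurd hm (by decide)

end Cfsg.Agent.Lib.Helper28.O73Mult.LowB
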