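import Cfsg.Agent.Lib.Helper28.O73Mult.LowA
import Cfsg.Agent.Lib.Helper28.O73Mult.LowB

/-!
# The cover group of `PΩ₇(3)` is a central extension with kernel of order at least 6 (helper28)

The value `z` in the cover group `E0` of the relator `zRel` of `PS` lies in the kernel of the
projection `E0 → PS`; the powers `z, z³, z⁵` act non-trivially in the model `LowA` and the powers
`z², z⁴` act non-trivially in the model `LowB`.
-/

set_option autoImplicit false

namespace Cfsg.Agent.Lib.Helper28.O73Mult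

open Cfsg.Agent.Lib.Helper56.TC (ew ew_cons ew_nil ew_append)
open Cfsg.Agent.Lib.Helper28.Cov Cfsg.Agent.Lib.Helper28.CovL
open Cfsg.Agent.Lib.Helper28.O73Mult.Words

theorem zRel_mem : zRel ∈ relL0 := by decide +kernel

theorem zRel_lt2 : ∀ a ∈ zRel ++ zRel, a < 8 := by decide

theorem zRel_lt3 : ∀ a ∈ zRel ++ zRel ++ zRel, a < 8 := by decide

theorem zRel_lt4 : ∀ a ∈ zRel ++ zRel ++ zRel ++ zRel, a < 8 := by decide

theorem zRel_lt5 : ∀ a ∈ zRel ++ zRel ++ zRel ++ zRel ++ zRel, a < 8 := by decide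

/-- The projection of the cover group onto `PS` is surjective with central kernel, and the
kernel contains an element `z` with `z ≠ 1`, …, `z⁵ ≠ 1`. -/
theorem exists_proj_ne : ∃ π : E0 →* PS, Function.Surjective π ∧
    π.ker ≤ Subgroup.center E0 ∧ ∃ z ∈ π.ker, z ≠ 1 ∧ z * z ≠ 1 ∧ z * z * z ≠ 1 ∧
      z * z * z * z ≠ 1 ∧ z * z * z * z * z ≠ 1 := by
  obtain ⟨π, hπ, hker⟩ := exists_proj RS (cw nm4 (fun y : Fin 4 => y.val) fac0) hw0'
  refine ⟨π, ?_, hker, ew (gl g0) zRel, ?_, ?_, ?_, ?_, ?_, ?_⟩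
  · intro y
    obtain ⟨x, rfl⟩ := PresentedGroup.mk_surjective RS y
    exact ⟨PresentedGroup.mk _ x, hπ x⟩
  · have hπg : ∀ i, π (g0 i) = uS i := fun i => hπ _
    have eπ : (fun i => π (g0 i)) = uS := funext hπg
    rw [MonoidHom.mem_ker, map_ew_gl, eπ]
    exact uS_rel zRel zRel_mem
  · exact LowA.ne_one_of_move zRel LowA.zRel_lt LowA.qmove1
  · rw [← ew_append]
    exact LowB.ne_one_of_move _ zRel_lt2 LowB.qmove2
  · rw [← ew_append, ← ew_append]
    exact LowA.ne_one_of_move _ zRel_lt3 LowA.qmove3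
  · rw [← ew_append, ← ew_append, ← ew_append]
    exact LowB.ne_one_of_move _ zRel_lt4 LowB.qmove4
  · rw [← ew_append, ← ew_append, ← ew_append, ← ew_append]
    exact LowA.ne_one_of_move _ zRel_lt5 LowA.qmove5

end Cfsg.Agent.Lib.Helper28.O73Mult
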