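import Cfsg.Prelude.Def_KGroupFacts
import Cfsg.Agent.S1686
import Cfsg.Agent.Lib.Helper28.O73Mult.Low

/-!
# The Schur multiplier of `PΩ₇(3)` is cyclic of order 6 (helper28)

`PS = ⟨u, v, t, s | relL0⟩` maps onto `PΩ₇(3)` (`γ'_surjective`), its cover group `E0` has order
at most `6 · |PΩ₇(3)|` (`card_E0`) and the kernel of the projection `E0 → PS` is central and
contains an element `z` with `z ≠ 1`, …, `z⁵ ≠ 1` (`exists_proj_ne`).  Hence `PS ≅ PΩ₇(3)`, the
kernel is cyclic of order 6 generated by `z`, `E0` is a stem extension with this kernel, and every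
finite stem extension is an image of `E0` (`Cov.stem_surj`), so its kernel is a commutative group
of order dividing 6, hence cyclic.  A field with three elements is isomorphic to `ZMod 3`, which
transports the statement to `PΩ₇(F)`.
-/

set_option autoImplicit false

namespace Cfsg.Agent.Lib.Helper28.O73Mult

open Cfsg.Agent.Lib.Helper28.Cov Cfsg.Agent.Lib.Helper28.CovL
open Cfsg.Agent.Lib.Helper28.G2Mult (L2.T)
open Cfsg.Agent.Lib.Helper28.O7 (Qo)

universe u

section generic

theorem card_ker_mul {Γ G : Type*} [Group Γ] [Group G] (σ : Γ →* G)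
    (hs : Function.Surjective σ) : Nat.card σ.ker * Nat.card G = Nat.card Γ := by
  have h := Subgroup.card_mul_index σ.ker
  rw [Subgroup.index_ker] at h
  have e : Nat.card σ.range = Nat.card G := by
    have : σ.range = ⊤ := MonoidHom.range_eq_top.mpr hs
    rw [this]
    exact Nat.card_congr (Subgroup.topEquiv (G := G)).toEquiv
  rw [e] at h
  exact h

theorem card_dvd_six_cases {n : ℕ} (h : n ∣ 6) : n = 1 ∨ n = 2 ∨ n = 3 ∨ n = 6 := by
  have hle : n ≤ 6 := Nat.le_of_dvd (by norm_num) h
  interval_cases n <;> omega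

/-- a finite group with commuting elements whose order divides 6 is cyclic -/
theorem isCyclic_of_comm_card_dvd_six {K : Type*} [Group K] [Finite K]
    (hc : ∀ a b : K, a * b = b * a) (h : Nat.card K ∣ 6) : IsCyclic K := by
  rcases card_dvd_six_cases h with h1 | h2 | h3 | h6
  · have : Subsingleton K := (Nat.card_eq_one_iff_unique.mp h1).1
    exact isCyclic_of_subsingleton
  · have : Fact (Nat.Prime 2) := ⟨Nat.prime_two⟩
    exact isCyclic_of_prime_card h2
  · have : Fact (Nat.Prime 3) := ⟨Nat.prime_three⟩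
    exact isCyclic_of_prime_card h3
  · have i2 : Fact (Nat.Prime 2) := ⟨Nat.prime_two⟩
    have i3 : Fact (Nat.Prime 3) := ⟨Nat.prime_three⟩
    obtain ⟨a, ha⟩ := exists_prime_orderOf_dvd_card' (G := K) 2 (by rw [h6]; norm_num)
    obtain ⟨b, hb⟩ := exists_prime_orderOf_dvd_card' (G := K) 3 (by rw [h6]; norm_num)
    have hab : orderOf (a * b) = 6 := by
      have h0 := Commute.orderOf_mul_eq_mul_orderOf_of_coprime (hc a b)
        (by rw [ha, hb]; norm_num)
      rw [h0, ha, hb]
    exact isCyclic_of_orderOf_eq_card (a * b) (by rw [hab, h6])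

theorem exists_surj_zmod6 {K : Type*} [Group K] [Finite K]
    (hc : ∀ a b : K, a * b = b * a) (h : Nat.card K ∣ 6) :
    ∃ f : Multiplicative (ZMod 6) →* K, Function.Surjective f := by
  have hcyc : IsCyclic K := isCyclic_of_comm_card_dvd_six hc h
  obtain ⟨g, hg⟩ := hcyc.exists_generator
  have hog : orderOf g = Nat.card K := orderOf_eq_card_of_forall_mem_zpowers hg
  let g6 : Multiplicative (ZMod 6) := Multiplicative.ofAdd 1
  have ho6 : orderOf g6 = 6 := by
    show orderOf (Multiplicative.ofAdd (1 : ZMod 6)) = 6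
    rw [orderOf_ofAdd_eq_addOrderOf, ZMod.addOrderOf_one]
  have hg6 : ∀ x, x ∈ Subgroup.zpowers g6 := by
    have h1 : Subgroup.zpowers g6 = ⊤ := by
      apply Subgroup.eq_top_of_card_eq
      rw [Nat.card_zpowers, ho6, Nat.card_eq_fintype_card, Fintype.card_multiplicative, ZMod.card]
    intro x
    rw [h1]
    exact Subgroup.mem_top x
  have hdvd : orderOf g ∣ orderOf g6 := by
    rw [ho6, hog]
    exact h
  refine ⟨monoidHomOfForallMemZpowers hg6 hdvd, ?_⟩
  intro x
  obtain ⟨k, rfl⟩ := Subgroup.mem_zpowers_iff.mp (hg x)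
  exact ⟨g6 ^ k, by rw [map_zpow, monoidHomOfForallMemZpowers_apply_gen]⟩

theorem nonempty_equiv_zmod6 {K : Type*} [Group K] (h : Nat.card K = 6) (z : K)
    (h1 : z ≠ 1) (h2 : z * z ≠ 1) (h3 : z * z * z ≠ 1) :
    Nonempty (K ≃* Multiplicative (ZMod 6)) := by
  have hfin : Finite K := Nat.finite_of_card_ne_zero (by rw [h]; norm_num)
  have hd : orderOf z ∣ 6 := by
    rw [← h]
    exact orderOf_dvd_natCard z
  have ho : orderOf z = 6 := by
    rcases card_dvd_six_cases hd with e | e | e | e
    · exact absurd (orderOf_eq_one_iff.mp e) h1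
    · exfalso
      apply h2
      have := pow_orderOf_eq_one z
      rw [e, sq] at this
      exact this
    · exfalso
      apply h3
      have := pow_orderOf_eq_one z
      rw [e, pow_succ, sq] at this
      exact this
    · exact e
  have : IsCyclic K := isCyclic_of_orderOf_eq_card z (by rw [ho, h])
  refine ⟨mulEquivOfCyclicCardEq ?_⟩
  rw [h, Nat.card_eq_fintype_card, Fintype.card_multiplicative, ZMod.card]

theorem cover_perfect {β : Type*} (S : Set (FreeGroup β)) (w : β → FreeGroup β)
    (hw : ∀ y, w y ∈ commutator (FreeGroup β)) :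
    commutator (PresentedGroup (coverRels S w)) = ⊤ := by
  rw [eq_top_iff, ← PresentedGroup.closure_range_of, Subgroup.closure_le]
  rintro _ ⟨y, rfl⟩
  have h1 : PresentedGroup.mk (coverRels S w) ((FreeGroup.of y)⁻¹ * w y) = 1 :=
    PresentedGroup.one_of_mem (mem_coverRels_right S w y)
  rw [map_mul, map_inv, inv_mul_eq_one] at h1
  have h2 : PresentedGroup.mk (coverRels S w) (w y) ∈
      commutator (PresentedGroup (coverRels S w)) := by
    have hle : (commutator (FreeGroup β)).map (PresentedGroup.mk (coverRels S w)) ≤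
        commutator (PresentedGroup (coverRels S w)) := by
      rw [commutator_def, commutator_def, Subgroup.map_commutator]
      exact Subgroup.commutator_mono le_top le_top
    exact hle ⟨_, hw y, rfl⟩
  rw [← h1] at h2
  exact h2

end generic

section grp

theorem map_commutator_equiv {G H : Type*} [Group G] [Group H] (e : G ≃* H) :
    (commutator G).map e.toMonoidHom = commutator H := by
  rw [commutator_def, commutator_def, Subgroup.map_commutator,
    Subgroup.map_top_of_surjective e.toMonoidHom e.surjective]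

/-- an isomorphism of groups induces an isomorphism of the commutator subgroups -/
noncomputable def commEquiv' {G H : Type*} [Group G] [Group H] (e : G ≃* H) :
    ↥(commutator G) ≃* ↥(commutator H) :=
  (e.subgroupMap (commutator G)).trans (MulEquiv.subgroupCongr (map_commutator_equiv e))

theorem map_center_equiv' {G H : Type*} [Group G] [Group H] (e : G ≃* H) :
    (Subgroup.center G).map e.toMonoidHom = Subgroup.center H := by
  ext y
  constructor
  · rintro ⟨x, hx, rfl⟩
    have hx' := Subgroup.mem_center_iff.mp hx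
    refine Subgroup.mem_center_iff.mpr ?_
    intro h
    show h * e x = e x * h
    have h1 := congrArg e (hx' (e.symm h))
    rw [map_mul, map_mul, e.apply_symm_apply] at h1
    exact h1
  · intro hy
    have hy' := Subgroup.mem_center_iff.mp hy
    refine ⟨e.symm y, ?_, e.apply_symm_apply y⟩
    show e.symm y ∈ Subgroup.center G
    refine Subgroup.mem_center_iff.mpr ?_
    intro g
    have h1 := congrArg e.symm (hy' (e g))
    rw [map_mul, map_mul, e.symm_apply_apply] at h1
    exact h1

/-- an isomorphism of groups induces an isomorphism of the quotients by the centres -/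
noncomputable def centerQuotEquiv' {G H : Type*} [Group G] [Group H] (e : G ≃* H) :
    G ⧸ Subgroup.center G ≃* H ⧸ Subgroup.center H :=
  QuotientGroup.congr (Subgroup.center G) (Subgroup.center H) e (map_center_equiv' e)

end grp

section field

open Matrix

variable {F₁ : Type*} {F₂ : Type*} [Field F₁] [Field F₂]

theorem quadFormOdd_map (m : ℕ) (e : F₁ ≃+* F₂) (v : Unit ⊕ (Fin m ⊕ Fin m) → F₁) :
    Cfsg.quadFormOdd m F₂ (fun i => e (v i)) = e (Cfsg.quadFormOdd m F₁ v) := by
  unfold Cfsg.quadFormOdd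
  rw [map_add, map_pow, map_sum]
  simp only [map_mul]

theorem mem_iso_iff {ι : Type} [Fintype ι] [DecidableEq ι] {F : Type*} [Field F]
    (Q : (ι → F) → F) (g : Matrix.GeneralLinearGroup ι F) :
    g ∈ Cfsg.isometryGroup F Q ↔ ∀ x, Q ((g : Matrix ι ι F) *ᵥ x) = Q x := by
  constructor
  · intro h x
    exact h x x
  · intro h x _
    exact h x

/-- the isomorphism of the general linear groups induced by a ring isomorphism -/
noncomputable def glEquiv {ι : Type} [Fintype ι] [DecidableEq ι] (e : F₁ ≃+* F₂) :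
    Matrix.GeneralLinearGroup ι F₁ ≃* Matrix.GeneralLinearGroup ι F₂ :=
  Units.mapEquiv (RingEquiv.mapMatrix e).toMulEquiv

theorem glEquiv_coe {ι : Type} [Fintype ι] [DecidableEq ι] (e : F₁ ≃+* F₂)
    (g : Matrix.GeneralLinearGroup ι F₁) :
    ((glEquiv e g : Matrix.GeneralLinearGroup ι F₂) : Matrix ι ι F₂) =
      (g : Matrix ι ι F₁).map e := rfl

theorem glEquiv_glEquiv {ι : Type} [Fintype ι] [DecidableEq ι] (e : F₁ ≃+* F₂)
    (g : Matrix.GeneralLinearGroup ι F₂) : glEquiv e (glEquiv e.symm g) = g := by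
  apply Units.ext
  rw [glEquiv_coe, glEquiv_coe, Matrix.map_map]
  ext i j
  simp

theorem glEquiv_mem (m : ℕ) (e : F₁ ≃+* F₂)
    (g : Matrix.GeneralLinearGroup (Unit ⊕ (Fin m ⊕ Fin m)) F₁)
    (hg : g ∈ Cfsg.isometryGroup F₁ (Cfsg.quadFormOdd m F₁)) :
    glEquiv e g ∈ Cfsg.isometryGroup F₂ (Cfsg.quadFormOdd m F₂) := by
  rw [mem_iso_iff] at hg ⊢
  intro u
  have hu : u = fun i => e (e.symm (u i)) := by
    funext i
    rw [e.apply_symm_apply]
  have h1 : ((glEquiv e g : Matrix.GeneralLinearGroup (Unit ⊕ (Fin m ⊕ Fin m)) F₂) :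
        Matrix (Unit ⊕ (Fin m ⊕ Fin m)) (Unit ⊕ (Fin m ⊕ Fin m)) F₂) *ᵥ u =
      fun i => e (((g : Matrix (Unit ⊕ (Fin m ⊕ Fin m)) (Unit ⊕ (Fin m ⊕ Fin m)) F₁) *ᵥ
        (fun j => e.symm (u j))) i) := by
    funext i
    rw [glEquiv_coe]
    conv_lhs => rw [hu]
    exact (RingHom.map_mulVec (e : F₁ →+* F₂)
      (g : Matrix (Unit ⊕ (Fin m ⊕ Fin m)) (Unit ⊕ (Fin m ⊕ Fin m)) F₁)
      (fun j => e.symm (u j)) i).symm
  rw [h1, quadFormOdd_map, hg (fun j => e.symm (u j)), ← quadFormOdd_map, ← hu]

/-- a ring isomorphism of the fields induces an isomorphism of the isometry groups -/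
noncomputable def isoOdd (m : ℕ) (e : F₁ ≃+* F₂) :
    ↥(Cfsg.isometryGroup F₁ (Cfsg.quadFormOdd m F₁)) ≃*
      ↥(Cfsg.isometryGroup F₂ (Cfsg.quadFormOdd m F₂)) :=
  MulEquiv.ofBijective
    (((glEquiv e).toMonoidHom.comp (Cfsg.isometryGroup F₁ (Cfsg.quadFormOdd m F₁)).subtype).codRestrict
      (Cfsg.isometryGroup F₂ (Cfsg.quadFormOdd m F₂)) (fun g => glEquiv_mem m e g.1 g.2))
    ⟨by
      intro a b h
      apply Subtype.ext
      exact (glEquiv e).injective (congrArg Subtype.val h),
     by
      intro g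
      exact ⟨⟨glEquiv e.symm g.1, glEquiv_mem m e.symm g.1 g.2⟩,
        Subtype.ext (glEquiv_glEquiv e g.1)⟩⟩

/-- a ring isomorphism of the fields induces an isomorphism of the groups `PΩ` -/
noncomputable def pOmegaEquiv (m : ℕ) (e : F₁ ≃+* F₂) :
    Cfsg.POmega F₁ (Cfsg.quadFormOdd m F₁) ≃* Cfsg.POmega F₂ (Cfsg.quadFormOdd m F₂) :=
  centerQuotEquiv' (commEquiv' (isoOdd m e))

end field

/-- The Schur multiplier of `PΩ₇(3)` is cyclic of order 6. -/
theorem o7_3_multiplier (hC0 : CertC L0.T) (hC1 : CertC Cfsg.Agent.Lib.Helper28.G23Mult.L0.T)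
    (hC2 : CertC L2.T) {F : Type u} [Field F] [Fintype F] (hF : Fintype.card F = 3) :
    Cfsg.HasCyclicSchurMultiplier (Cfsg.POmega F (Cfsg.quadFormOdd 3 F)) 6 := by
  obtain ⟨f0, c0⟩ := card_E0 hC0 hC1 hC2
  have : Finite E0 := f0
  obtain ⟨π, hπs, hπc, z, hz, hz1, hz2, hz3, hz4, hz5⟩ := exists_proj_ne
  have hPSfin : Finite PS := Finite.of_surjective π hπs
  have hG3 : Nat.card (Cfsg.POmega (ZMod 3) Qo) = 4585351680 := Cfsg.Agent.S1686.card_POmega
  have hge : 4585351680 ≤ Nat.card PS := by
    rw [← hG3]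
    exact Nat.card_le_card_of_surjective γ' γ'_surjective
  have hE0' : Nat.card π.ker * Nat.card PS = Nat.card E0 := card_ker_mul π hπs
  have hzo : 6 ≤ orderOf z := by
    by_contra hcon
    have hpos : 0 < orderOf z := orderOf_pos z
    have hp := pow_orderOf_eq_one z
    have hcases : orderOf z = 1 ∨ orderOf z = 2 ∨ orderOf z = 3 ∨ orderOf z = 4 ∨
        orderOf z = 5 := by omega
    rcases hcases with e | e | e | e | e
    · rw [e, pow_one] at hp
      exact hz1 hp
    · rw [e, sq] at hp
      exact hz2 hp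
    · rw [e, pow_succ, sq] at hp
      exact hz3 hp
    · rw [e, pow_succ, pow_succ, sq] at hp
      exact hz4 hp
    · rw [e, pow_succ, pow_succ, pow_succ, sq] at hp
      exact hz5 hp
  have hdvd : orderOf z ∣ Nat.card π.ker := Subgroup.orderOf_dvd_natCard π.ker hz
  have h6 : 6 ≤ Nat.card π.ker := le_trans hzo (Nat.le_of_dvd Nat.card_pos hdvd)
  have hkπ : Nat.card π.ker = 6 := by
    by_contra hcon
    have h7 : 7 ≤ Nat.card π.ker := by omega
    have : 7 * 4585351680 ≤ Nat.card π.ker * Nat.card PS := Nat.mul_le_mul h7 hge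
    omega
  have hPS : Nat.card PS = 4585351680 := by
    rw [hkπ] at hE0'
    omega
  have hE0 : Nat.card E0 = 27512110080 := by
    rw [← hE0', hkπ, hPS]
  have hb : Function.Bijective γ' :=
    γ'_surjective.bijective_of_nat_card_le (by rw [hPS, hG3])
  let e₁ : PS ≃* Cfsg.POmega (ZMod 3) Qo := MulEquiv.ofBijective γ' hb
  have hK : Fintype.card (ZMod 3) = Fintype.card F := by rw [hF, ZMod.card]
  let ψ : ZMod 3 ≃+* F := FiniteField.ringEquivOfCardEq hK
  let e : PS ≃* Cfsg.POmega F (Cfsg.quadFormOdd 3 F) := e₁.trans (pOmegaEquiv 3 ψ)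
  have hG : Nat.card (Cfsg.POmega F (Cfsg.quadFormOdd 3 F)) = 4585351680 := by
    rw [← Nat.card_congr e.toEquiv]
    exact hPS
  let σ : ULift.{u} E0 →* Cfsg.POmega F (Cfsg.quadFormOdd 3 F) :=
    (e.toMonoidHom.comp π).comp (MulEquiv.ulift (α := E0)).toMonoidHom
  have hσ : ∀ x : ULift.{u} E0, σ x = e (π x.down) := fun x => rfl
  have hσs : Function.Surjective σ := by
    intro g
    obtain ⟨y, hy⟩ := hπs (e.symm g)
    refine ⟨ULift.up y, ?_⟩
    rw [hσ, hy, e.apply_symm_apply]
  have hperf : commutator (ULift.{u} E0) = ⊤ := by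
    have h0 := cover_perfect RS (cw nm4 (fun y : Fin 4 => y.val) fac0) hw0
    let f : E0 →* ULift.{u} E0 := (MulEquiv.ulift (α := E0)).symm.toMonoidHom
    have hf : Function.Surjective f := (MulEquiv.ulift (α := E0)).symm.surjective
    have h1 := Subgroup.map_commutator (⊤ : Subgroup E0) ⊤ f
    rw [Subgroup.map_top_of_surjective f hf, ← commutator_def, ← commutator_def, h0,
      Subgroup.map_top_of_surjective f hf] at h1
    exact h1.symm
  have hσk : Nat.card σ.ker = 6 := by
    have h1 := card_ker_mul σ hσs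
    rw [hG] at h1
    have h2 : Nat.card (ULift.{u} E0) = Nat.card E0 := Nat.card_congr Equiv.ulift
    rw [h2, hE0] at h1
    omega
  refine ⟨⟨ULift.{u} E0, inferInstance, inferInstance, σ, ⟨hσs, ?_, ?_⟩, ?_⟩, ?_⟩
  · intro x hx
    rw [MonoidHom.mem_ker, hσ] at hx
    have h1 : π x.down = 1 := by
      apply e.injective
      rw [map_one]
      exact hx
    have h2 := hπc (MonoidHom.mem_ker.mpr h1)
    rw [Subgroup.mem_center_iff] at h2 ⊢
    intro g
    apply ULift.ext
    exact h2 g.down
  · rw [hperf]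
    exact le_top
  · have hzk : ULift.up z ∈ σ.ker := by
      rw [MonoidHom.mem_ker, hσ]
      show e (π z) = 1
      rw [MonoidHom.mem_ker.mp hz, map_one]
    have hd : ∀ x : σ.ker, x = 1 → (x : ULift.{u} E0).down = 1 := by
      intro x hx
      rw [hx]
      rfl
    apply nonempty_equiv_zmod6 hσk (⟨ULift.up z, hzk⟩ : σ.ker)
    · intro h
      exact hz1 (hd _ h)
    · intro h
      exact hz2 (hd _ h)
    · intro h
      exact hz3 (hd _ h)
  · intro Γ _ _ τ hτ
    let τ' : Γ →* PS := e.symm.toMonoidHom.comp τ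
    have hk : τ'.ker = τ.ker := by
      ext x
      rw [MonoidHom.mem_ker, MonoidHom.mem_ker]
      show e.symm (τ x) = 1 ↔ τ x = 1
      constructor
      · intro h
        apply e.symm.injective
        rw [map_one]
        exact h
      · intro h
        rw [h, map_one]
    have hτ' : Cfsg.IsStemExtension τ' := by
      obtain ⟨hs, hc, hm⟩ := hτ
      refine ⟨e.symm.surjective.comp hs, ?_, ?_⟩
      · rw [hk]
        exact hc
      · rw [hk]
        exact hm
    obtain ⟨ψ', hψ'⟩ := stem_surj RS (cw nm4 (fun y : Fin 4 => y.val) fac0) hw0 hw0' τ' hτ'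
    have h1 := card_ker_mul ψ' hψ'
    have h2 := card_ker_mul τ hτ.1
    rw [hG] at h2
    have h5 : Nat.card ψ'.ker * Nat.card τ.ker = 6 := by
      have h6' : Nat.card ψ'.ker * Nat.card τ.ker * 4585351680 = 6 * 4585351680 := by
        rw [mul_assoc, h2, h1, hE0]
      exact Nat.eq_of_mul_eq_mul_right (by norm_num) h6'
    have hcomm : ∀ a b : τ.ker, a * b = b * a := by
      intro a b
      apply Subtype.ext
      have ha := Subgroup.mem_center_iff.mp (hτ.2.1 a.2)
      exact (ha b.1).symm
    exact exists_surj_zmod6 hcomm (Dvd.intro_left _ h5)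

end Cfsg.Agent.Lib.Helper28.O73Mult
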